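import Cfsg.Agent.H137.G25.Mdl
import Cfsg.Agent.H137.G25.C0
import Cfsg.Agent.H137.G25.C1
import Cfsg.Agent.H137.G25.C2
import Cfsg.Agent.H137.G25.C3
import Cfsg.Agent.H137.G25.C4
import Cfsg.Agent.H137.G25.C5
import Cfsg.Agent.H137.G25.C6
import Cfsg.Agent.H137.G25.C7
import Cfsg.Agent.H137.G25.C8
import Cfsg.Agent.H137.G25.C9
import Cfsg.Agent.H137.G25.C10
import Cfsg.Agent.H137.G25.Nine
import Cfsg.Agent.H137.G25.SepC
import Cfsg.Agent.H210.TC.Row
import Cfsg.Agent.ChevalleyStructure.FieldIso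

/-!
# S2464 and S2452, the row `G₂(5)` (helper137)

Every element of `G₂(5)` is a product of two elements of order 7: 44 classes (class equation certificate of helper123 on
3906 points), the factorizations are explicit words.
-/

set_option autoImplicit false
set_option maxRecDepth 1000000
set_option maxHeartbeats 400000
set_option exponentiation.threshold 5000
set_option Elab.async false

namespace Cfsg.Agent.H137.G25

open Equiv Subgroup Cfsg.Agent.H123.Cls Cfsg.Agent.Lib.BitNet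
open Cfsg.Agent.Lib.BitNetSimple (force force_eq tb tb_eq)

/-- the element of order 7 -/
abbrev wX : List (Fin 17) := [10, 14, 15, 14]

/-- the conjugating words -/
def wl (i : ℕ) : List (Fin 17) :=
  [[10, 11, 10, 10, 12, 10, 11, 9, 11], [10, 11, 9], [13, 9, 15], [12, 9, 13, 10, 16, 16, 10, 11, 10], [15, 14, 14, 15], [12, 14], [9, 14, 9, 13, 15, 9, 15, 9], [16, 16], [11, 9, 11], [16, 14, 9, 11, 9, 15], [11, 10, 12, 10, 16], [13, 11, 9, 12], [9, 11, 10, 14, 10], [12, 9], [9, 14], [14, 9], [12, 13, 11], [13, 11, 13, 9], [10, 11, 9, 16], [13, 13, 9], [11, 11, 10], [12], [12, 15], [16, 10], [15, 11], [13, 12, 9], [16, 13], [16, 9, 13], [9, 14, 11], [15], [9, 9, 12], [12, 13], [15, 15, 12], [9, 12], [11, 11], [9, 13, 10], [13], [12, 10], [10, 15], [15, 13, 13], [9], [14, 10], [11, 15, 14], [16, 12]].getD i []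

/-- the tables -/
noncomputable def pl (i : ℕ) : ℕ :=
  [p0, p1, p2, p3, p4, p5, p6, p7, p8, p9, p10, p11, p12, p13, p14, p15, p16, p17, p18, p19, p20, p21, p22, p23, p24, p25, p26, p27, p28, p29, p30, p31, p32, p33, p34, p35, p36, p37, p38, p39, p40, p41, p42, p43].getD i 0

/-- the bounds minus one -/
def cl (i : ℕ) : ℕ :=
  [5858999999, 14399, 719, 377999, 479, 479, 374999, 3749, 1249, 1874, 14999, 719, 719, 35, 20, 23, 23, 599, 599, 49, 49, 23, 23, 74, 749, 29, 74, 19, 19, 20, 20, 23, 23, 23, 23, 24, 29, 29, 30, 30, 30, 30, 30, 74].getD i 0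

/-- the invariants -/
def sl (i : ℕ) : List ℕ :=
  [[3906, 0, 0], [42, 0, 720], [0, 720, 0], [126, 3780, 0], [14, 240, 720], [18, 240, 840], [31, 0, 0], [16, 375, 375], [6, 125, 125], [1, 0, 0], [36, 750, 750], [6, 900, 0], [0, 0, 0], [0, 72, 288], [0, 168, 168], [2, 120, 204], [0, 144, 144], [12, 150, 270], [7, 0, 120], [2, 75, 45], [2, 275, 95], [0, 192, 96], [2, 204, 144], [1, 30, 75], [1, 30, 0], [0, 90, 120], [1, 105, 0], [3, 120, 160], [4, 210, 230], [0, 168, 21], [0, 168, 126], [2, 180, 156], [2, 180, 204], [0, 120, 192], [0, 96, 120], [1, 75, 125], [0, 60, 120], [1, 180, 120], [0, 124, 155], [0, 248, 155], [0, 62, 186], [0, 155, 31], [0, 124, 93], [1, 105, 0]].getD i []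

/-- the representative -/
noncomputable def rp (i : ℕ) : Perm (Fin 3906) := W (wX ++ (wl i ++ (wX ++ wi (wl i))))

theorem rp_mem (i : ℕ) : rp i ∈ N := W_mem _

theorem rp_eq (i : ℕ) : rp i = W wX * (W (wl i) * W wX * (W (wl i))⁻¹) := by
  rw [rp, W_append, W_append, W_append, W_wi]
  group

theorem rp_tab : ∀ i < 44, ∀ p : Fin 3906, (rp i p : ℕ) = lk 12 (pl i) p := by
  intro i hi
  interval_cases i
  · exact W_of_chkW wd0
  · exact W_of_chkW wd1
  · exact W_of_chkW wd2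
  · exact W_of_chkW wd3
  · exact W_of_chkW wd4
  · exact W_of_chkW wd5
  · exact W_of_chkW wd6
  · exact W_of_chkW wd7
  · exact W_of_chkW wd8
  · exact W_of_chkW wd9
  · exact W_of_chkW wd10
  · exact W_of_chkW wd11
  · exact W_of_chkW wd12
  · exact W_of_chkW wd13
  · exact W_of_chkW wd14
  · exact W_of_chkW wd15
  · exact W_of_chkW wd16
  · exact W_of_chkW wd17
  · exact W_of_chkW wd18
  · exact W_of_chkW wd19
  · exact W_of_chkW wd20
  · exact W_of_chkW wd21
  · exact W_of_chkW wd22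
  · exact W_of_chkW wd23
  · exact W_of_chkW wd24
  · exact W_of_chkW wd25
  · exact W_of_chkW wd26
  · exact W_of_chkW wd27
  · exact W_of_chkW wd28
  · exact W_of_chkW wd29
  · exact W_of_chkW wd30
  · exact W_of_chkW wd31
  · exact W_of_chkW wd32
  · exact W_of_chkW wd33
  · exact W_of_chkW wd34
  · exact W_of_chkW wd35
  · exact W_of_chkW wd36
  · exact W_of_chkW wd37
  · exact W_of_chkW wd38
  · exact W_of_chkW wd39
  · exact W_of_chkW wd40
  · exact W_of_chkW wd41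
  · exact W_of_chkW wd42
  · exact W_of_chkW wd43

theorem pl_bd : ∀ i < 44, i ≠ 9 → ∃ l L, chkB 3906 12 row 12 (pl i) l L (cl i) = true := by
  intro i hi h9
  interval_cases i
  · exact ⟨_, _, bd0⟩
  · exact ⟨_, _, bd1⟩
  · exact ⟨_, _, bd2⟩
  · exact ⟨_, _, bd3⟩
  · exact ⟨_, _, bd4⟩
  · exact ⟨_, _, bd5⟩
  · exact ⟨_, _, bd6⟩
  · exact ⟨_, _, bd7⟩
  · exact ⟨_, _, bd8⟩
  · exact absurd rfl h9
  · exact ⟨_, _, bd10⟩
  · exact ⟨_, _, bd11⟩
  · exact ⟨_, _, bd12⟩
  · exact ⟨_, _, bd13⟩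
  · exact ⟨_, _, bd14⟩
  · exact ⟨_, _, bd15⟩
  · exact ⟨_, _, bd16⟩
  · exact ⟨_, _, bd17⟩
  · exact ⟨_, _, bd18⟩
  · exact ⟨_, _, bd19⟩
  · exact ⟨_, _, bd20⟩
  · exact ⟨_, _, bd21⟩
  · exact ⟨_, _, bd22⟩
  · exact ⟨_, _, bd23⟩
  · exact ⟨_, _, bd24⟩
  · exact ⟨_, _, bd25⟩
  · exact ⟨_, _, bd26⟩
  · exact ⟨_, _, bd27⟩
  · exact ⟨_, _, bd28⟩
  · exact ⟨_, _, bd29⟩
  · exact ⟨_, _, bd30⟩
  · exact ⟨_, _, bd31⟩
  · exact ⟨_, _, bd32⟩
  · exact ⟨_, _, bd33⟩
  · exact ⟨_, _, bd34⟩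
  · exact ⟨_, _, bd35⟩
  · exact ⟨_, _, bd36⟩
  · exact ⟨_, _, bd37⟩
  · exact ⟨_, _, bd38⟩
  · exact ⟨_, _, bd39⟩
  · exact ⟨_, _, bd40⟩
  · exact ⟨_, _, bd41⟩
  · exact ⟨_, _, bd42⟩
  · exact ⟨_, _, bd43⟩

theorem pl_ky : ∀ i < 44, chkKey 3906 12 row 12 (pl i) key (sl i) = true := by
  intro i hi
  interval_cases i
  · exact ky0
  · exact ky1
  · exact ky2
  · exact ky3
  · exact ky4
  · exact ky5
  · exact ky6
  · exact ky7
  · exact ky8
  · exact ky9
  · exact ky10
  · exact ky11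
  · exact ky12
  · exact ky13
  · exact ky14
  · exact ky15
  · exact ky16
  · exact ky17
  · exact ky18
  · exact ky19
  · exact ky20
  · exact ky21
  · exact ky22
  · exact ky23
  · exact ky24
  · exact ky25
  · exact ky26
  · exact ky27
  · exact ky28
  · exact ky29
  · exact ky30
  · exact ky31
  · exact ky32
  · exact ky33
  · exact ky34
  · exact ky35
  · exact ky36
  · exact ky37
  · exact ky38
  · exact ky39
  · exact ky40
  · exact ky41
  · exact ky42
  · exact ky43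

theorem sl_len : ∀ i < 44, (sl i).length = key.length := by decide

theorem sl_chk : ((List.range 44).all fun i => (List.range 44).all fun j => decide (i = j) ||
    (decide (i = 26) && decide (j = 43)) || (decide (i = 43) && decide (j = 26)) || !(decide (sl i = sl j))) = true := by
  decide +kernel

theorem sl_ne : ∀ i < 44, ∀ j < 44, i ≠ j → ¬ (i = 26 ∧ j = 43) → ¬ (i = 43 ∧ j = 26) → sl i ≠ sl j := by
  intro i hi j hj hij h1 h2 h3
  have h4 := List.all_eq_true.1 (List.all_eq_true.1 sl_chk i (List.mem_range.2 hi)) j (List.mem_range.2 hj)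
  simp only [Bool.or_eq_true, Bool.and_eq_true, decide_eq_true_eq, Bool.not_eq_true', decide_eq_false_iff_not] at h4
  tauto

/-! ### the two classes of elements of order 15 with the same invariants -/

theorem not_conj {σ : Perm (Fin 3906)} (h1 : σ ∈ Aut 3906 (hxG nbl)) (h2 : σ ∈ Aut 3906 row)
    (h : σ * rp 26 * σ⁻¹ = rp 43) : False := by
  have h26 : ∀ p : Fin 3906, (rp 26 p : ℕ) = lk 12 p26 p := W_of_chkW wd26
  have h43 : ∀ p : Fin 3906, (rp 43 p : ℕ) = lk 12 p43 p := W_of_chkW wd43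
  have e1 := cn_of_chk nb_chk h26 cn26
  have e2 := cn_of_chk nb_chk h43 cn43
  rw [← h, cn_conj h1 h2, e1] at e2
  exact absurd e2 (by norm_num)

/-! ### the cover -/

theorem sum_eq : ∑ i : Fin 44, 5859000000 / (cl i + 1) = 5859000000 := by decide +kernel

theorem rp_bd : ∀ i < 44, Nat.card ↥(N ⊓ centralizer {rp i}) ≤ cl i + 1 := by
  intro i hi
  have hc : Comm (rp i) (N ⊓ centralizer {rp i}) := fun σ hσ p => by
    have h2 := Subgroup.mem_centralizer_singleton_iff.1 (Subgroup.mem_inf.1 hσ).2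
    exact congrArg (fun τ : Perm (Fin 3906) => τ p) h2
  by_cases h9 : i = 9
  · subst h9
    have ht : ∀ p : Fin 3906, (rp 9 p : ℕ) = lk 12 p9 p := W_of_chkW wd9
    exact card_le_Q nb_chk ht bd9 (inf_le_left.trans N_le_hex) (inf_le_left.trans N_le_aut) hc
  · obtain ⟨l, L, h1⟩ := pl_bd i hi h9
    exact card_le_bound (by norm_num) (rp_tab i hi) h1 (inf_le_left.trans N_le_aut) hc

theorem cover44 (g : Perm (Fin 3906)) (hg : g ∈ N) : ∃ i < 44, ∃ a ∈ N, g = a * rp i * a⁻¹ := by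
  obtain ⟨i, a, ha, h⟩ := cover (A := N) (N := N) (fun a ha x hx => N.mul_mem (N.mul_mem ha hx) (N.inv_mem ha))
    (fun i : Fin 44 => rp i)
    (fun i => rp_mem i) (fun i => cl i + 1) (fun i => rp_bd i i.2) (fun i j hij a ha h1 => by
      by_cases h2 : (i : ℕ) = 26 ∧ (j : ℕ) = 43
      · rw [h2.1, h2.2] at h1
        exact not_conj (N_le_hex ha) (N_le_aut ha) h1
      by_cases h3 : (i : ℕ) = 43 ∧ (j : ℕ) = 26
      · rw [h3.1, h3.2] at h1
        refine not_conj (N_le_hex (N.inv_mem ha)) (N_le_aut (N.inv_mem ha)) (σ := a⁻¹) ?_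
        rw [← h1]
        group
      · refine sl_ne i i.2 j j.2 (fun h => hij (Fin.ext h)) h2 h3 ?_
        rw [← key_of_chk (by norm_num) (rp_tab i i.2) (pl_ky i i.2) (sl_len i i.2),
          ← key_of_chk (by norm_num) (rp_tab j j.2) (pl_ky j j.2) (sl_len j j.2)]
        refine List.map_congr_left fun k _ => ?_
        rw [← h1, pj_conj (N_le_aut ha)]) (by
      rw [card_N, sum_eq]) g hg
  exact ⟨i, i.2, a, ha, h⟩

/-! ### the elements of order 7 -/

/-- the element of order 7 -/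
noncomputable def x : N := ⟨W wX, W_mem wX⟩

theorem seven_word : allN (fun p => Nat.beq (evw 12 gens ((wX ++ wX ++ wX ++ wX ++ wX ++ wX ++ wX).map Fin.val) p) p)
    3906 = true := by
  decide +kernel

theorem W_seven : W wX ^ 7 = 1 := by
  have h : W (wX ++ wX ++ wX ++ wX ++ wX ++ wX ++ wX) = 1 := by
    ext p
    rw [W_tab, Perm.one_apply]
    exact Nat.eq_of_beq_eq_true ((allN_iff _ _).1 seven_word p p.2)
  rw [W_append, W_append, W_append, W_append, W_append, W_append] at h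
  rw [← h]
  simp only [pow_succ, pow_zero, one_mul]

theorem order_x : orderOf x = 7 := by
  have : Fact (Nat.Prime 7) := ⟨by norm_num⟩
  refine orderOf_eq_prime (Subtype.ext W_seven) fun h => ?_
  have h1 : W wX = 1 := congrArg Subtype.val h
  have h2 : allN (fun p => Nat.beq (evw 12 gens (wX.map Fin.val) p) p) 3906 = false := by decide +kernel
  have h3 : allN (fun p => Nat.beq (evw 12 gens (wX.map Fin.val) p) p) 3906 = true := by
    rw [allN_iff]
    intro i hi
    have h4 := W_tab wX ⟨i, hi⟩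
    rw [h1] at h4
    change i = evw 12 gens (wX.map Fin.val) i at h4
    rw [← h4]
    exact Nat.beq_refl i
  rw [h2] at h3
  cases h3

/-- **every element of `N` is a product of two conjugates of `x`** -/
theorem prd (g : N) : ∃ u v : N, g = (u * x * u⁻¹) * (v * x * v⁻¹) := by
  obtain ⟨i, hi, a, ha, h⟩ := cover44 g g.2
  rw [rp_eq] at h
  refine ⟨⟨a, ha⟩, ⟨a * W (wl i), N.mul_mem ha (W_mem _)⟩, Subtype.ext ?_⟩
  rw [h]
  show _ = (a * W wX * a⁻¹) * ((a * W (wl i)) * W wX * (a * W (wl i))⁻¹)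
  group

theorem row3_N : Cfsg.Agent.H210.TC.Row3 N := by
  refine ⟨x, x, by rw [order_x]; norm_num, by rw [order_x]; norm_num, by rw [order_x]; norm_num,
    by rw [order_x]; norm_num, fun g _ => prd g, fun g => ?_⟩
  obtain ⟨u, v, h2⟩ := prd (g * x⁻¹)
  refine ⟨u, v, 1, ?_⟩
  rw [← h2]
  group

/-- **the row `G₂(5)` of S2464, S2452, S4173** -/
theorem row3_g2_five {F : Type*} [Field F] [Fintype F] (hF : Fintype.card F = 5) :
    Cfsg.Agent.H210.TC.Row3 ↥(Cfsg.Lie.chevG2.group F) := by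
  have h5 : Fintype.card F = Fintype.card (ZMod 5) := hF.trans (ZMod.card 5).symm
  have σ : F ≃+* ZMod 5 := FiniteField.ringEquivOfCardEq h5
  exact Cfsg.Agent.H210.TC.Row3.of_equiv
    ((Cfsg.Agent.ChevalleyStructure.FieldIso.groupEquiv Cfsg.Lie.chevG2 σ).trans eN) row3_N

/-- **S2464, row `G₂(5)`** -/
theorem six_g2_five {F : Type*} [Field F] [Fintype F] (hF : Fintype.card F = 5) :
    ∃ x y : ↥(Cfsg.Lie.chevG2.group F), Nat.Coprime (orderOf x) 6 ∧ Nat.Coprime (orderOf y) 6 ∧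
      ∀ g : ↥(Cfsg.Lie.chevG2.group F), g ≠ 1 →
        ∃ u v : ↥(Cfsg.Lie.chevG2.group F), g = (u * x * u⁻¹) * (v * y * v⁻¹) := by
  obtain ⟨x, y, -, h1, -, h2, h, -⟩ := row3_g2_five hF
  exact ⟨x, y, h1, h2, h⟩

end Cfsg.Agent.H137.G25
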